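import Mathlib
import Cfsg.Agent.Trans25.Basic

/-! Transvections in dimension three are all conjugate. -/

set_option autoImplicit false

namespace Cfsg.Agent.Trans25

open Matrix

variable {F : Type*} [Field F]

theorem exists_sl_two_col (a b : F) (h : a ≠ 0 ∨ b ≠ 0) :
    ∃ g : Matrix.SpecialLinearGroup (Fin 3) F,
      (g : Matrix (Fin 3) (Fin 3) F) *ᵥ Pi.single 1 1 = ![0, a, b] ∧
      (Pi.single 0 1 : Fin 3 → F) ᵥ* (g : Matrix (Fin 3) (Fin 3) F) = Pi.single 0 1 := by
  by_cases ha : a = 0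
  · have hb : b ≠ 0 := h.resolve_left (not_not.mpr ha)
    refine ⟨⟨!![1, 0, 0; 0, 0, -b⁻¹; 0, b, 0], by simp [det_fin_three, hb]⟩, ?_, ?_⟩
    · funext i; fin_cases i <;> simp [ha]
    · funext i; fin_cases i <;> simp
  · refine ⟨⟨!![1, 0, 0; 0, a, 0; 0, b, a⁻¹], by simp [det_fin_three, ha]⟩, ?_, ?_⟩
    · funext i; fin_cases i <;> simp
    · funext i; fin_cases i <;> simp

theorem isConj_of_isTransvection_three (t t' : Matrix.SpecialLinearGroup (Fin 3) F)
    (ht : Cfsg.IsTransvection (t : Matrix (Fin 3) (Fin 3) F))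
    (ht' : Cfsg.IsTransvection (t' : Matrix (Fin 3) (Fin 3) F)) : IsConj t t' := by
  have key : ∀ s : Matrix.SpecialLinearGroup (Fin 3) F, Cfsg.IsTransvection (s : Matrix (Fin 3) (Fin 3) F) →
      IsConj s (Matrix.SpecialLinearGroup.transvection (show (1 : Fin 3) ≠ 0 by decide) (1 : F)) := by
    intro s hs
    obtain ⟨g, v, hv, hv0, hg⟩ := exists_conj_normal_form (n := 1) s hs
    have hv' : v 1 ≠ 0 ∨ v 2 ≠ 0 := by
      by_contra hc
      push Not at hc
      exact hv (funext fun i => by fin_cases i <;> simp [hv0, hc.1, hc.2])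
    obtain ⟨g2, hg2, hg2'⟩ := exists_sl_two_col (v 1) (v 2) hv'
    have hvv : (g2 : Matrix (Fin 3) (Fin 3) F) *ᵥ Pi.single 1 1 = v := by
      rw [hg2]; funext i; fin_cases i <;> simp [hv0]
    have he : (g⁻¹ * s * g) * g2 =
        g2 * Matrix.SpecialLinearGroup.transvection (show (1 : Fin 3) ≠ 0 by decide) (1 : F) := by
      apply Subtype.ext
      rw [Matrix.SpecialLinearGroup.coe_mul, hg, Matrix.SpecialLinearGroup.coe_mul,
        Matrix.SpecialLinearGroup.transvection_coe, add_mul, mul_add, one_mul, mul_one,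
        vecMulVec_mul, hg2', Matrix.single_eq_single_vecMulVec_single, mul_vecMulVec, hvv]
    rw [isConj_iff]
    refine ⟨(g * g2)⁻¹, ?_⟩
    rw [show (g * g2)⁻¹ * s * (g * g2)⁻¹⁻¹ = g2⁻¹ * ((g⁻¹ * s * g) * g2) by group, he,
      inv_mul_cancel_left]
  exact (key t ht).trans (key t' ht').symm

end Cfsg.Agent.Trans25
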